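import Cfsg.Agent.Leech.Simple
import Cfsg.Agent.Known.Bridge
import Cfsg.Agent.Known.Cover
import Cfsg.Agent.Spor.Act3
import Cfsg.Agent.Comp.Part

/-! Identification of subgroups of `Co0` (helper22): from a presentation of a simple group (`equiv_of_lifts`), from the
action on a set of vectors (`exists_perm`, `mdl_of_act`). -/

set_option autoImplicit false

namespace Cfsg.Agent.Leech

open Cfsg.Agent.Comp Cfsg.Agent.Known Subgroup Equiv

theorem ev_rev {Γ : Type*} [Group Γ] (y : ℕ → Γ) (w : List ℕ) : Spor.ev y w = W y w.reverse := by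
  induction w with
  | nil => simp
  | cons a w ih => simp [Spor.ev_cons, ih, W_append]

theorem base_e8 (K : Subgroup CG) : IsBase K PV ((List.range 24).map e8C) := fun _ h =>
  Subtype.ext (eq_one_of_fix fun j => h _ (List.mem_map_of_mem (List.mem_range.2 (Golay.EG.enc_lt j))) _ (PV_e8 j))

theorem equiv_of_lifts {Γ : Type} [Group Γ] [IsSimpleGroup Γ] {g : ℕ → Γ} {nl : ℕ} {rels : List (List ℕ)}
    (hl : Lifts g (nl + 1) rels) {K : Subgroup CG} {d : ℕ} {L : List ℕ} (hK : CodesIn RC (d :: L) K)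
    (hc : Nat.card K = Nat.card Γ) (h : allL rels (fun r =>
      eqB (fun i => actV (nthL d (d :: L) i)) ((List.range 24).map e8C) r.reverse []) = true) (hne : d ≠ oneC) :
    Nonempty (Γ ≃* K) := by
  obtain ⟨x, h1, h2⟩ := exists_actBy isActV (d := d) (L := d :: L) (K := K) fun c hc => hK c (by simpa using hc)
  obtain ⟨ψ, hψ⟩ := hl K x fun r hr => by
    rw [ev_rev, eq_of_eqB (P := PV) (fun _ _ _ => PV.func) h2 (base_e8 K) (allL_iff.1 h r hr), W_nil]
  exact ⟨MulEquiv.ofBijective ψ ((Spor.injective_of_simple ψ (x := g 0) fun t => hne (canC.canon (h1 0) (by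
    rw [← hψ 0 nl.succ_pos, t]; exact grpC.one))).bijective_of_nat_card_le hc.le)⟩

theorem exists_perm {N : ℕ} {f : ℕ → ℕ} (h1 : ∀ i < N, f i < N) (h2 : ∀ i < N, ∀ j < N, f i = f j → i = j) :
    ∃ σ : Perm ℕ, (∀ i, N ≤ i → σ i = i) ∧ ∀ i < N, σ i = f i := by
  have b := ((Set.finite_Iio N).injOn_iff_bijOn_of_mapsTo (f := f) h1).1 fun i hi j hj => h2 i hi j hj
  refine ⟨ofBijective (fun i => if i < N then f i else i) ⟨fun i j e => ?_, fun i => ?_⟩, fun i hi => if_neg hi.not_gt,
    fun i hi => if_pos hi⟩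
  · by_cases hi : i < N <;> by_cases hj : j < N <;> simp only [hi, hj, if_true, if_false] at e
    exacts [h2 i hi j hj e, absurd (e ▸ h1 i hi) hj, absurd (e ▸ h1 j hj) hi, e]
  · by_cases hi : i < N
    · obtain ⟨j, hj, e⟩ := b.surjOn hi
      exact ⟨j, (if_pos hj).trans e⟩
    · exact ⟨i, if_neg hi⟩

/-- a group of known order acting on listed points is a model. -/
theorem mdl_of_act {G X : Type*} [Group G] [MulAction G X] {P : ℕ → X → Prop} (hP : IsCanon P) {x : ℕ → G}
    {actG : ℕ → ℕ → ℕ} (hA : ActBy x P actG) {N k n : ℕ} (vs : ℕ → ℕ) (act : ℕ → ℕ → ℕ)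
    (hv : ∀ i < N, ∃ z, P (vs i) z) (hG : Nat.card G = n) (hn : 0 < n) (hN : 0 < N) (wl : List (List ℕ)) (B : List ℕ)
    (h : band (band (allLt (Nat.pred N) fun i => Nat.blt (vs i) (vs (Nat.succ i)))
      (allLt k fun j => allLt N fun i => band (Nat.blt (act j i) N) (Nat.beq (actG j (vs i)) (vs (act j i)))))
      (band (allL wl fun w => allL w fun l => Nat.blt l k) (Nat.ble n (chainT (fun c a =>
        bif' (band (Nat.blt 0 a) (Nat.ble a N)) (Nat.succ (actW act (nthL [] wl c) (Nat.pred a))) 0) N B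
        (List.range (lenL wl))))) = true) :
    ∃ φ y, Mdl (Γ := G) φ N k n y (fun j i => bif' (Nat.blt j k) (act j i) i) (List.range N) := by
  rw [band_eq, band_eq, band_eq, Bool.and_eq_true, Bool.and_eq_true, Bool.and_eq_true, nble] at h
  obtain ⟨⟨hm, h⟩, hw, e⟩ := h
  simp only [band_eq, Bool.and_eq_true, allLt_iff, allL_iff, nblt, nbeq] at h hw
  have : Nonempty X := ⟨(hv 0 hN).choose⟩
  choose! pt hpt using hv
  have hinj : ∀ i < N, ∀ j < N, pt i = pt j → i = j := fun i hi j hj e =>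
    inj_of_mono hm i hi j hj (hP.canon (hpt i hi) (e ▸ hpt j hj))
  have ha : ∀ j < k, ∀ i < N, x j • pt i = pt (act j i) := fun j hj i hi =>
    hP.func (hA rfl (hpt i hi)) ((h j hj i hi).2 ▸ hpt _ (h j hj i hi).1)
  choose! σ h1 h2 using fun j (hj : j < k) => exists_perm (f := act j) (fun i hi => (h j hj i hi).1) fun a h1 b h2 e =>
    hinj a h1 b h2 (smul_left_cancel (x j) (by rw [ha j hj a h1, ha j hj b h2, e]))
  have fx : ∀ z ∈ Spor.genL σ (List.range k), ∀ i, N ≤ i → z i = i := fun z hz i hi =>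
    Spor.genL_le (H := MulAction.stabilizer _ i) (fun l hl => h1 l (List.mem_range.1 hl) i hi) hz
  have mw : ∀ w : List ℕ, (∀ l ∈ w, l < k) → W σ w ∈ Spor.genL σ (List.range k) := fun w hw =>
    W_mem _ fun l hl => Spor.mem_genL _ (List.mem_range.2 (hw l hl))
  have wd : ∀ w : List ℕ, (∀ l ∈ w, l < k) → ∀ i < N, W σ w i = actW act w i := fun w hw i hi => by
    induction w with
    | nil => rfl
    | cons l w ih =>
      have t : ∀ l ∈ w, l < k := fun l hl => hw l (List.mem_cons_of_mem _ hl)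
      rw [W_cons, Perm.mul_apply, h2 l (hw l List.mem_cons_self) _ (Spor.perm_lt_of_fix (fx _ (mw w t)) hi), ih t]
      exact (force_eq _ _).symm
  have hw' : ∀ c, ∀ l ∈ nthL [] wl c, l < k := fun c => by
    rcases nthL_mem_or [] wl c with e | e
    exacts [hw _ e, by simp [e]]
  obtain ⟨ε, hε⟩ := equiv_of_card (MulAction.toPermHom G X) pt x σ (List.range k) hinj
    (fun j hj => h1 j (List.mem_range.1 hj)) (fun j hj i hi => by
      rw [h2 j (List.mem_range.1 hj) i hi]; exact ha j (List.mem_range.1 hj) i hi) rfl hn hG fun _ => by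
    have := chainT_mul_le (φ := MonoidHom.id _) (pt := Nat.pred) (M := N) (N := N) (y := fun c => W σ (nthL [] wl c))
      (f := fun c a => bif' (band (Nat.blt 0 a) (Nat.ble a N)) (Nat.succ (actW act (nthL [] wl c) (Nat.pred a))) 0)
      (fun a h1 h2 => ⟨show a - 1 < N by omega, fun b _ _ (t : a - 1 = b - 1) => by omega⟩) (fun c => ⟨rfl, fun a ha => by
        simp only [bif'_eq, band_eq, Bool.and_eq_true, nblt, nble] at ha ⊢
        split_ifs at ha ⊢ with t
        · exact wd _ (hw' c) _ (by rw [Nat.pred_eq_sub_one]; omega)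
        · exact absurd rfl ha⟩) B (List.range (lenL wl)) _ ⊥ (fun c _ => mw _ (hw' c)) bot_le (by simp)
    rw [card_bot, mul_one] at this
    exact e.trans this
  have k1 : ∀ j < k, (ε (x j)).1 = σ j := fun j hj => Equiv.ext fun i => (lt_or_ge i N).elim (fun hi => by
    rw [h2 j hj i hi]
    exact hinj _ (Spor.perm_lt_of_fix (fx _ (ε _).2) hi) _ (h j hj i hi).1 ((hε _ i hi).symm.trans (ha j hj i hi)))
    fun hi => (fx _ (ε _).2 i hi).trans (h1 j hj i hi).symm
  refine ⟨(Subgroup.subtype _).comp ε.toMonoidHom, fun j => if j < k then x j else 1, fun a => fx _ (ε a).2, ?_,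
    fun g hg => ε.injective (Subtype.ext (Equiv.ext fun i => ?_)), ?_, hG, hn⟩
  · rintro j _ a _ rfl ⟨rfl, t⟩
    simp only [bif'_eq, nblt]
    split_ifs with c
    · have := (DFunLike.congr_fun (k1 j c) a).trans (h2 j c a t)
      exact ⟨this.symm, this.trans_lt (h j c a t).1⟩
    · have := DFunLike.congr_fun (congrArg Subtype.val (map_one ε)) a
      exact ⟨this.symm, this.trans_lt t⟩
  · rw [map_one]
    exact (lt_or_ge i N).elim (fun hi => hg i (List.mem_range.2 hi) i ⟨rfl, hi⟩) (fx _ (ε g).2 i)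
  · apply Subgroup.map_injective (f := (Subgroup.subtype _).comp ε.toMonoidHom) ((subtype_injective _).comp ε.injective)
    rw [map_genL, ← MonoidHom.range_eq_map, MonoidHom.range_comp, MonoidHom.range_eq_top.2 ε.surjective,
      ← MonoidHom.range_eq_map, range_subtype]
    exact genL_congr fun j hj => (congrArg (fun t => (ε t).1) (if_pos (List.mem_range.1 hj))).trans
      (k1 j (List.mem_range.1 hj))

end Cfsg.Agent.Leech
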