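import Cfsg.Agent.Leech.Group

/-! Conway's characterisation of the Leech lattice. -/

set_option autoImplicit false
set_option maxRecDepth 100000

namespace Cfsg.Agent.Leech.Uniq

open Cfsg.Agent.Comp Cfsg.Agent.Golay Finset

structure Pre (Λ : AddSubgroup V) : Prop where
  h16 : ∀ x ∈ Λ, 16 ∣ sqNorm x
  ne16 : ∀ x ∈ Λ, sqNorm x ≠ 16
  four : ∀ b : V, 2 ∣ ∑ i, b i → (4 : ℤ) • b ∈ Λ
  cnt : {x | x ∈ Λ ∧ sqNorm x = 32}.ncard = 196560

theorem sqNorm_single (i : GolayPt) (k : ℤ) : sqNorm (Pi.single i k : V) = k * k := by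
  rw [sqNorm_eq, dot_single_left, Pi.single_eq_same]

theorem sum_single (i : GolayPt) (k : ℤ) : ∑ j, (Pi.single i k : V) j = k := by simp

theorem odd_shape {x : V} (ho : ∀ i, Odd (x i)) (h : sqNorm x = 32) : ∃ k, x k ^ 2 = 9 ∧ ∀ i ≠ k, x i ^ 2 = 1 := by
  have h1 : ∀ i, x i ^ 2 = 1 ∨ 9 ≤ x i ^ 2 := fun i => by
    have := Int.odd_iff.1 (ho i)
    rcases (by omega : x i = 1 ∨ x i = -1 ∨ 3 ≤ x i ∨ x i ≤ -3) with e | e | e | e
    exacts [Or.inl (by rw [e]; rfl), Or.inl (by rw [e]; rfl), Or.inr (by nlinarith), Or.inr (by nlinarith)]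
  obtain ⟨k, hk⟩ : ∃ k, x k ^ 2 ≠ 1 := by
    by_contra! e
    simp only [sqNorm, e, sum_const_pt] at h; omega
  have h2 : ∑ i, (x i ^ 2 - if i = k then 9 else 1) = 0 := by
    rw [sum_sub_distrib, show ∑ i : GolayPt, (if i = k then (9 : ℤ) else 1) = 32 by
      rw [show (fun i => if i = k then (9 : ℤ) else 1) = fun i => 1 + if i = k then 8 else 0 from
        funext fun i => by split_ifs <;> rfl, sum_add_distrib, sum_const_pt]; simp]
    exact sub_eq_zero.2 h
  have h3 := (sum_eq_zero_iff_of_nonneg fun i _ => by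
    have := h1 i; split_ifs with e
    · subst e; omega
    · omega).1 h2
  exact ⟨k, by simpa [sub_eq_zero] using h3 k (mem_univ k), fun i hi => by simpa [sub_eq_zero, hi] using h3 i (mem_univ i)⟩

theorem even_shape {a : V} (h : sqNorm a = (oddS a).card) (i : GolayPt) : a i ^ 2 = if i ∈ oddS a then 1 else 0 := by
  refine ((sum_eq_sum_iff_of_le (s := univ) (f := fun i => if i ∈ oddS a then (1 : ℤ) else 0)
    (g := fun i => a i ^ 2) fun j _ => ?_).1 ?_ i (mem_univ i)).symm
  · split_ifs with e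
    · have := Int.odd_iff.1 (mem_oddS.1 e)
      have : 0 < a j ^ 2 := by have : a j ≠ 0 := by omega
                               positivity
      omega
    · positivity
  · rw [← sqNorm, h]; simp

theorem card_pack {O : Finset (Finset GolayPt)} (h8 : ∀ S ∈ O, S.card = 8)
    (h : ∀ S ∈ O, ∀ T ∈ O, S ≠ T → (S ∩ T).card ≤ 4) : O.card ≤ 759 := by
  have h1 := card_le_card (subset_univ (O.biUnion (powersetCard 5)) |>.trans subset_rfl)
  have h2 : (O.biUnion (powersetCard 5)).card ≤ (powersetCard 5 (univ : Finset GolayPt)).card :=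
    card_le_card fun t ht => by
      obtain ⟨S, -, k⟩ := mem_biUnion.1 ht
      exact mem_powersetCard.2 ⟨subset_univ _, (mem_powersetCard.1 k).2⟩
  rw [card_biUnion fun S hS T hT e => disjoint_left.2 fun t k1 k2 => by
      have := card_le_card (subset_inter (mem_powersetCard.1 k1).1 (mem_powersetCard.1 k2).1)
      have := h S hS T hT e; have := (mem_powersetCard.1 k1).2; omega,
    sum_congr rfl fun S hS => by rw [card_powersetCard, h8 S hS], card_powersetCard, card_univ, card_pt, sum_const,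
    show Nat.choose 8 5 = 56 from rfl, show Nat.choose 24 5 = 42504 by decide +kernel, smul_eq_mul] at h2
  omega

theorem ncard_four : {x | x ∈ leechLattice ∧ sqNorm x = (32 : ℕ) ∧ ∀ i, 4 ∣ x i}.ncard = 1104 :=
  (ncard_short (fun t => Nat.beq (t % 4) 0) (by norm_num) (fun _ _ _ => true) fun y _ _ _ => by
    simp only [nbeq, and_true, sh]; exact forall_congr' fun i => by omega).trans (by decide +kernel)

namespace Pre
variable {Λ : AddSubgroup V} (H : Pre Λ)
include H

theorem dot8 {x y : V} (hx : x ∈ Λ) (hy : y ∈ Λ) : 8 ∣ dotInt x y := by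
  have := H.h16 _ (add_mem hx hy); have := H.h16 _ hx; have := H.h16 _ hy
  rw [sqNorm_add] at *; omega

theorem par {x : V} (hx : x ∈ Λ) : (∃ a : V, x = (2 : ℤ) • a) ∨ ∀ i, Odd (x i) := by
  have h : ∀ i, 2 ∣ x i + x none := fun i => by
    have := H.dot8 hx (H.four (Pi.single i 1 + Pi.single none 1) (by simp [sum_add_distrib]))
    rw [dot_smul_right, dot_add_right, dot_single_right, dot_single_right] at this
    omega
  by_cases e : Odd (x none)
  · exact Or.inr fun i => by have := h i; rw [Int.odd_iff] at *; omega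
  · exact Or.inl ⟨fun i => x i / 2, funext fun i => by
      have := h i; rw [Int.odd_iff] at e; simp only [Pi.smul_apply, smul_eq_mul]; omega⟩

theorem wt {a : V} (ha : (2 : ℤ) • a ∈ Λ) : 4 ∣ (oddS a).card ∧ (oddS a).card ≠ 4 := by
  rcases (oddS a).eq_empty_or_nonempty with e | ⟨p, hp⟩
  · simp [e]
  have hb : ∀ i, 2 ∣ a i - ind 1 (oddS a) i := fun i => by
    rw [ind]; split_ifs with h <;> rw [mem_oddS, Int.odd_iff] at h <;> omega
  choose b hb using hb
  have key : ∀ k : ℤ, k = 0 ∨ k = 1 → 2 ∣ ∑ i, b i + k → 4 ∣ (oddS a).card ∧ (oddS a).card ≠ 4 := fun k hk h => by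
    have m := sub_mem ha (H.four (b + Pi.single p k) (by simpa [sum_add_distrib] using h))
    have e : sqNorm ((2 : ℤ) • a - (4 : ℤ) • (b + Pi.single p k)) = 4 * (oddS a).card := by
      rw [sqNorm, show ((oddS a).card : ℤ) = ∑ i, if i ∈ oddS a then 1 else 0 by simp, mul_sum]
      refine sum_congr rfl fun i _ => ?_
      have := hb i
      simp only [Pi.sub_apply, Pi.smul_apply, Pi.add_apply, smul_eq_mul, Pi.single_apply, ind] at this ⊢
      by_cases e : i = p
      · subst e
        rw [if_pos hp] at this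
        rw [if_pos rfl, if_pos hp, show a i = 2 * b i + 1 by omega]
        rcases hk with rfl | rfl <;> ring
      · rw [if_neg e]
        split_ifs at this ⊢
        · rw [show a i = 2 * b i + 1 by omega]; ring
        · rw [show a i = 2 * b i by omega]; ring
    have := H.h16 _ m; have := H.ne16 _ m
    omega
  by_cases h : 2 ∣ ∑ i, b i
  exacts [key 0 (Or.inl rfl) (by simpa), key 1 (Or.inr rfl) (by omega)]

end Pre

/-- the code of the lattice. -/
def code (Λ : AddSubgroup V) : Submodule (ZMod 2) (GolayPt → ZMod 2) := AddSubgroup.toZModSubmodule 2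
  { carrier := {w | ∃ a : V, (2 : ℤ) • a ∈ Λ ∧ w = ind2 (oddS a)}
    zero_mem' := ⟨0, by simp, by rw [← cast_eq_ind2]; rfl⟩
    add_mem' := by
      rintro _ _ ⟨a, ha, rfl⟩ ⟨b, hb, rfl⟩
      exact ⟨a + b, by rw [smul_add]; exact add_mem ha hb, by rw [oddS_add, ind2_symmDiff]⟩
    neg_mem' := fun {w} h => by rwa [neg_eq_of_add_eq_zero_left (add_self₂ w)] }

theorem mem_code {Λ : AddSubgroup V} {w : GolayPt → ZMod 2} :
    w ∈ code Λ ↔ ∃ a : V, (2 : ℤ) • a ∈ Λ ∧ w = ind2 (oddS a) := Iff.rfl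

namespace Pre
variable {Λ : AddSubgroup V} (H : Pre Λ)
include H

theorem even : ∀ w ∈ code Λ, Even (hammingNorm w) := by
  rintro _ ⟨a, ha, rfl⟩
  rw [hammingNorm_ind2, Nat.even_iff]; have := (H.wt ha).1; omega

theorem min : ∀ w ∈ code Λ, w ≠ 0 → 8 ≤ hammingNorm w := by
  rintro _ ⟨a, ha, rfl⟩ h
  have : (oddS a).card ≠ 0 := fun e => h (by rw [card_eq_zero.1 e, ind2_empty])
  rw [hammingNorm_ind2]; have := H.wt ha; omega

theorem big : 4096 ≤ Nat.card (code Λ) ∧ ∃ x ∈ Λ, sqNorm x = 32 ∧ ∀ i, Odd (x i) := by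
  classical
  have fin : {x | x ∈ Λ ∧ sqNorm x = 32}.Finite := (finite_le 32).subset fun x hx => hx.2.le
  have fin0 : {x | x ∈ leechLattice ∧ sqNorm x = (32 : ℕ) ∧ ∀ i, 4 ∣ x i}.Finite :=
    (finite_le 32).subset fun x hx => hx.2.1.le
  set N := fin.toFinset
  have mN : ∀ {x}, x ∈ N ↔ x ∈ Λ ∧ sqNorm x = 32 := fin.mem_toFinset
  let N8 := N.filter fun x => ∃ a : V, x = (2 : ℤ) • a ∧ (oddS a).card = 8
  let N1 := N.filter fun x => ∀ i, Odd (x i)
  have h0 : N ⊆ fin0.toFinset ∪ N8 ∪ N1 := fun x hx => by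
    obtain ⟨h1, h2⟩ := mN.1 hx
    rcases H.par h1 with ⟨a, rfl⟩ | h
    · have h3 := card_oddS_le a
      have h4 := H.wt h1
      rw [sqNorm_smul] at h2
      refine mem_union_left _ ?_
      by_cases e : (oddS a).card = 8
      · exact mem_union_right _ (mem_filter.2 ⟨hx, a, rfl, e⟩)
      have h5 : ∀ i, 2 ∣ a i := fun i => by
        have : i ∉ oddS a := by rw [card_eq_zero.1 (by omega : (oddS a).card = 0)]; simp
        rw [mem_oddS, Int.odd_iff] at this; omega
      choose b hb using h5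
      obtain rfl : a = (2 : ℤ) • b := funext hb
      have h6 := two_dvd_sq b
      rw [sqNorm_smul] at h2
      refine mem_union_left _ (fin0.mem_toFinset.2 ⟨?_, (mN.1 hx).2, fun i => ⟨b i, ?_⟩⟩)
      · rw [smul_smul]; exact four_mem (by omega)
      · simp only [Pi.smul_apply, smul_eq_mul]; ring
    · exact mem_union_right _ (mem_filter.2 ⟨hx, h⟩)
  let O := univ.filter fun S : Finset GolayPt => ind2 S ∈ code Λ ∧ S.card = 8
  have sh8 : ∀ x ∈ N8, ∃ S ∈ O, ∀ i, x i ^ 2 = if i ∈ S then 4 else 0 := fun x hx => by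
    obtain ⟨h1, a, rfl, h2⟩ := mem_filter.1 hx
    obtain ⟨h3, h4⟩ := mN.1 h1
    rw [sqNorm_smul] at h4
    refine ⟨oddS a, mem_filter.2 ⟨mem_univ _, ⟨a, h3, rfl⟩, h2⟩, fun i => ?_⟩
    rw [Pi.smul_apply, smul_eq_mul, mul_pow, even_shape (by omega)]
    split_ifs <;> rfl
  choose! f hf hf' using sh8
  have h8 : N8.card ≤ 128 * O.card := card_le_mul_card_image_of_maps_to hf 128 fun S hS => by
    have c8 := (mem_filter.1 hS).2.2
    obtain ⟨p, hp⟩ : S.Nonempty := card_pos.1 (by omega)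
    refine (card_le_card_of_injOn (t := (S.erase p).powerset) (fun x => (S.erase p).filter fun i => 0 < x i)
      (fun x _ => mem_coe.2 (mem_powerset.2 (filter_subset _ _))) fun x hx y hy e => ?_).trans
      (by rw [card_powerset, card_erase_of_mem hp, c8]; norm_num)
    obtain ⟨hx, ex⟩ := mem_filter.1 hx
    obtain ⟨hy, ey⟩ := mem_filter.1 hy
    have k : ∀ i, x i ^ 2 = y i ^ 2 := fun i => by rw [hf' x hx, hf' y hy, ex, ey]
    have k1 : ∀ i ≠ p, x i = y i := fun i hi => by
      rcases sq_eq_sq_iff_eq_or_eq_neg.1 (k i) with e' | e'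
      · exact e'
      have := hf' x hx i
      rw [ex] at this
      split_ifs at this with h
      · have h' := congrArg (i ∈ ·) e
        simp only [mem_filter, mem_erase, hi, h, ne_eq, not_false_eq_true, true_and, eq_iff_iff] at h'
        omega
      · have := pow_eq_zero_iff two_ne_zero |>.1 this; omega
    refine funext fun i => by_contra fun hn => ?_
    obtain rfl : i = p := by_contra fun h => hn (k1 i h)
    have k2 := hf' x hx i
    rw [ex, if_pos hp] at k2
    refine H.ne16 _ (sub_mem (mN.1 (mem_filter.1 hx).1).1 (mN.1 (mem_filter.1 hy).1).1) ?_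
    rw [sqNorm, sum_eq_single i (fun j _ hj => by simp [k1 j hj]) (by simp), Pi.sub_apply,
      show y i = -x i by have := (sq_eq_sq_iff_eq_or_eq_neg.1 (k i)).resolve_left hn; omega]
    linear_combination 4 * k2
  have hO : O.card ≤ 759 := card_pack (fun S hS => (mem_filter.1 hS).2.2) fun S hS T hT e => by
    have := near_cases H.min (S := S) (T := T) (by
      rw [ind2_symmDiff]; exact add_mem (mem_filter.1 hS).2.1 (mem_filter.1 hT).2.1) e
    have := (mem_filter.1 hS).2.2; have := (mem_filter.1 hT).2.2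
    omega
  have h1 := (card_le_card h0).trans ((card_union_le _ _).trans (Nat.add_le_add_right (card_union_le _ _) _))
  rw [← Set.ncard_eq_toFinset_card _ fin, H.cnt, ← Set.ncard_eq_toFinset_card _ fin0, ncard_four] at h1
  obtain ⟨x0, hx0⟩ : N1.Nonempty := card_pos.1 (by omega)
  obtain ⟨m0, o0⟩ := mem_filter.1 hx0
  refine ⟨?_, x0, (mN.1 m0).1, (mN.1 m0).2, o0⟩
  have sh1 : ∀ x ∈ N1, ∃ k, x k ^ 2 = 9 ∧ ∀ i ≠ k, x i ^ 2 = 1 := fun x hx =>
    odd_shape (mem_filter.1 hx).2 (mN.1 (mem_filter.1 hx).1).2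
  choose! g hg hg' using sh1
  have hh : ∀ x ∈ N1, ∀ i, x i - x0 i = 2 * ((x i - x0 i) / 2) := fun x hx i => by
    have := Int.odd_iff.1 ((mem_filter.1 hx).2 i); have := Int.odd_iff.1 (o0 i); omega
  have h2 := card_le_card_of_injOn (s := N1) (t := (univ : Finset GolayPt) ×ˢ (code Λ : Set (GolayPt → ZMod 2)).toFinset)
    (fun x => (g x, ind2 (oddS fun i => (x i - x0 i) / 2))) (fun x hx => mem_coe.2 (mem_product.2 ⟨mem_univ _,
      Set.mem_toFinset.2 ⟨_, by
        rw [show (2 : ℤ) • (fun i => (x i - x0 i) / 2) = x - x0 from funext fun i => (hh x hx i).symm]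
        exact sub_mem (mN.1 (mem_filter.1 hx).1).1 (mN.1 m0).1, rfl⟩⟩)) fun x hx y hy e => funext fun i => by
    obtain ⟨e1, e2⟩ := Prod.mk.inj e
    have e3 := congrArg (i ∈ ·) (ind2_inj e2)
    simp only [mem_oddS, Int.odd_iff, eq_iff_iff] at e3
    have := hh x hx i; have := hh y hy i
    have k : x i ^ 2 = y i ^ 2 := by
      by_cases h : i = g x
      · rw [h, hg x hx, e1, hg y hy]
      · rw [hg' x hx i h, hg' y hy i (e1 ▸ h)]
    have := Int.odd_iff.1 ((mem_filter.1 hx).2 i)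
    rcases sq_eq_sq_iff_eq_or_eq_neg.1 k with e | e <;> omega
  rw [card_product, card_univ, card_pt, Set.toFinset_card, ← Nat.card_eq_fintype_card] at h2
  have : Nat.card (code Λ : Set (GolayPt → ZMod 2)) = Nat.card (code Λ) := rfl
  omega

theorem golay : ∃ e : GolayPt ≃ GolayPt, ∀ a : V, (2 : ℤ) • a ∈ Λ → (oddS a).image e ∈ GSupp := by
  have h1 := H.big.1
  rw [Module.natCard_eq_pow_finrank (K := ZMod 2), Nat.card_zmod] at h1
  obtain ⟨v, hv⟩ := exists_linearIndependent_of_le_finrank (R := ZMod 2) (M := code Λ) (n := 12)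
    ((Nat.pow_le_pow_iff_right (by norm_num)).1 (show 2 ^ 12 ≤ _ from h1))
  have hv' := hv.map' (code Λ).subtype (Submodule.ker_subtype _)
  have le : Submodule.span (ZMod 2) (Set.range ((code Λ).subtype ∘ v)) ≤ code Λ :=
    Submodule.span_le.2 (by rintro _ ⟨i, rfl⟩; exact (v i).2)
  obtain ⟨e, he⟩ := exists_equiv_golay card_pt ((finrank_span_eq_card hv').trans (Fintype.card_fin _))
    (fun w hw => H.even w (le hw)) fun w hw => H.min w (le hw)
  refine ⟨e, fun a ha => ?_⟩
  obtain ⟨T, h4, hT⟩ := exists_leader ((oddS a).image e)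
  have k := le ((he _).1 (mem_supp_iff.1 hT))
  have k' : (fun i => ind2 T (e i)) ∈ code Λ := by
    have := add_mem k (show ind2 (oddS a) ∈ code Λ from ⟨a, ha, rfl⟩)
    rwa [← ind2_image e (oddS a), ind2_symmDiff, show (fun i => (ind2 ((oddS a).image e) + ind2 T) (e i)) +
      (fun i => ind2 ((oddS a).image e) (e i)) = fun i => ind2 T (e i) from funext fun i => by
        have := congrFun (add_self₂ (ind2 ((oddS a).image e))) (e i)
        simp only [Pi.add_apply, Pi.zero_apply] at this ⊢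
        linear_combination this] at this
  have : T = ∅ := by
    by_contra hn
    have := H.min _ k' fun e0 => hn (card_eq_zero.1 (by
      rw [← hammingNorm_ind2, ← hammingNorm_comp_equiv e, e0, hammingNorm_zero]))
    rw [hammingNorm_comp_equiv, hammingNorm_ind2] at this
    omega
  rwa [this, ← bot_eq_empty, symmDiff_bot] at hT

theorem main : ∃ ψ : V →+ V, (∀ x, sqNorm (ψ x) = sqNorm x) ∧ Λ.map ψ = leechLattice := by
  obtain ⟨e, he⟩ := H.golay
  obtain ⟨x0, m0, n0, o0⟩ := H.big.2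
  let ε : GolayPt → ℤ := fun j => if x0 (e.symm j) % 4 = 1 then 1 else -1
  have hε : ∀ j, ε j = 1 ∨ ε j = -1 := fun j => by simp only [ε]; split_ifs <;> simp
  let ψ : V →+ V := AddMonoidHom.mk' (fun x j => ε j * x (e.symm j)) fun x y => funext fun j => mul_add ..
  have hψ : ∀ x j, ψ x j = ε j * x (e.symm j) := fun _ _ => rfl
  have hd : ∀ x y, dotInt (ψ x) (ψ y) = dotInt x y := fun x y => by
    rw [dotInt, dotInt, ← e.symm.sum_comp (fun i => x i * y i)]
    refine sum_congr rfl fun j _ => ?_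
    rw [hψ, hψ]; rcases hε j with h | h <;> rw [h] <;> ring
  have hn : ∀ x, sqNorm (ψ x) = sqNorm x := fun x => by rw [sqNorm_eq, sqNorm_eq, hd]
  have h1 : ∀ j, 4 ∣ ψ x0 j - 1 := fun j => by
    have := Int.odd_iff.1 (o0 (e.symm j))
    simp only [hψ, ε]; split_ifs <;> omega
  choose c hc using h1
  have h2 : ψ x0 ∈ leechLattice := by
    refine mem_iff.2 ⟨1, (2 : ℤ) • c, fun i => by have := hc i; simp only [Pi.smul_apply, smul_eq_mul]; omega, ?_, ?_⟩
    · rw [show oddS ((2 : ℤ) • c) = ∅ from eq_empty_of_forall_notMem fun i => by simp [mem_oddS]]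
      exact empty_mem_supp
    · have := (hn x0).trans n0
      rw [show ψ x0 = (fun _ => 1) + (4 : ℤ) • c from funext fun i => by
        have := hc i; simp only [Pi.add_apply, Pi.smul_apply, smul_eq_mul]; omega, sqNorm_add, sqNorm_smul,
        dot_smul_right] at this
      simp only [sqNorm, dotInt, one_pow, one_mul, sum_const_pt] at this
      simp only [Pi.smul_apply, smul_eq_mul, ← mul_sum]
      omega
  have h3 : ∀ a : V, (2 : ℤ) • a ∈ Λ → ψ ((2 : ℤ) • a) ∈ leechLattice := fun a ha => by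
    refine mem_iff.2 ⟨0, ψ a, fun i => by rw [map_zsmul]; simp, ?_, ?_⟩
    · rw [show oddS (ψ a) = (oddS a).image e from Finset.ext fun j => by
        conv_rhs => rw [← e.apply_symm_apply j, e.injective.mem_finset_image, mem_oddS]
        rw [mem_oddS, hψ]
        rcases hε j with h | h <;> simp [h]]
      exact he a ha
    · have := H.dot8 ha m0
      rw [← hd, map_zsmul, dot_smul_left, show ψ x0 = (fun _ => 1) + (4 : ℤ) • c from funext fun i => by
        have := hc i; simp only [Pi.add_apply, Pi.smul_apply, smul_eq_mul]; omega, dot_add_right, dot_smul_right] at this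
      simp only [dotInt, mul_one] at this
      omega
  have le : Λ.map ψ ≤ leechLattice := by
    rintro _ ⟨x, hx, rfl⟩
    rcases H.par hx with ⟨a, rfl⟩ | h
    · exact h3 a hx
    · rcases H.par (sub_mem hx m0) with ⟨a, ha⟩ | h'
      · rw [← sub_add_cancel x x0, map_add, ha]
        exact add_mem (h3 a (ha ▸ sub_mem hx m0)) h2
      · have := Int.odd_iff.1 (h none); have := Int.odd_iff.1 (h' none); have := Int.odd_iff.1 (o0 none)
        rw [Pi.sub_apply] at *; omega
  have inj : Function.Injective ψ := (injective_iff_map_eq_zero ψ).2 fun x h =>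
    sqNorm_eq_zero (by rw [← hn, h, sqNorm_zero])
  have h4 : ψ '' {x | x ∈ Λ ∧ sqNorm x = 32} = {x | x ∈ leechLattice ∧ sqNorm x = 32} :=
    Set.eq_of_subset_of_ncard_le (by rintro _ ⟨x, hx, rfl⟩; exact ⟨le ⟨x, hx.1, rfl⟩, (hn x).trans hx.2⟩)
      (by rw [Set.ncard_image_of_injective _ inj, H.cnt, ncard32]) ((finite_le 32).subset fun x hx => hx.2.le)
  have h5 : ∀ x ∈ leechLattice, sqNorm x = 32 → x ∈ Λ.map ψ := fun x hx h =>
    let ⟨y, hy, e⟩ := h4.ge ⟨hx, h⟩; ⟨y, hy.1, e⟩
  refine ⟨ψ, hn, le_antisymm le (le_of_gens_oct (fun i => ?_) (fun c hc => h5 _ (ind_two_mem hc.1) ?_)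
    (h5 _ (odd_mem _) (by decide +kernel)))⟩
  · by_cases h : i = none
    · rw [h, show (d4 none none 1 : V) = d4 none (some 0) 1 + d4 none (some 0) (-1) by decide +kernel]
      exact add_mem (h5 _ (d4 ..).2 (by decide +kernel)) (h5 _ (d4 ..).2 (by decide +kernel))
    · exact h5 _ (d4 ..).2 (by revert i; decide +kernel)
  · simp only [sqNorm, ind, ite_pow, sum_ite_mem, univ_inter, sum_const, hc.2, ne_eq, OfNat.ofNat_ne_zero,
      not_false_eq_true, zero_pow]
    rfl

end Pre

theorem frame {L : Type*} [AddCommGroup L] {β : L →+ L →+ ℤ} (H : Lat β 4) (hQ : (dbl L).range.index = 2 ^ 24)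
    (h4 : {x | β x x = 4}.ncard = 196560) (h6 : {x | β x x = 6}.ncard = 16773120)
    (h8 : {x | β x x = 8}.ncard = 398034000) : ∃ φ : L →+ V, (∀ x, sqNorm (φ x) = 8 * β x x) ∧
      ∀ b : V, 2 ∣ ∑ i, b i → (4 : ℤ) • b ∈ φ.range := by
  classical
  obtain ⟨x, hx⟩ := Set.nonempty_of_ncard_ne_zero (h8.trans_ne (by norm_num))
  have h1 := (H.count (by norm_num) (by norm_num) (by norm_num) hQ h4 h6 h8).2 x hx
  have fin := Set.finite_of_ncard_ne_zero (h1.trans_ne (by norm_num))
  rw [Set.ncard_eq_toFinset_card _ fin] at h1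
  have n0 : ∀ y, β y y = 2 * 4 → y ≠ 0 := fun y h e => by simp [e] at h
  obtain ⟨F, c1, c2, c3⟩ := H.exists_half fin.toFinset (fun y hy => n0 y (fin.mem_toFinset.1 hy).1) fun y hy w hw e e' => by
    obtain ⟨a1, z, a2⟩ := fin.mem_toFinset.1 hy
    obtain ⟨b1, z', b2⟩ := fin.mem_toFinset.1 hw
    exact (H.short_cases a1.le b1.le (z := z' - z) (by rw [smul_sub, ← a2, ← b2]; abel) e e').2.2
  have c4 : ∀ y ∈ F, β y y = 2 * 4 ∧ ∃ z, x - y = 2 • z := fun y hy => (c2 y hy).elim fin.mem_toFinset.1 fun h => by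
    obtain ⟨a1, z, a2⟩ := fin.mem_toFinset.1 h
    exact ⟨by simpa using a1, z - y, by rw [smul_sub, ← a2, two_smul]; abel⟩
  have rk : ∀ G : Finset L, (∀ y ∈ G, y ≠ 0) → (∀ y ∈ G, ∀ w ∈ G, y ≠ w → β y w = 0) → G.card ≤ 24 := fun G h h' =>
    H.rank G (H.linearIndependent _ (fun y => h _ y.2) fun i j e => h' _ i.2 _ j.2 fun k => e (Subtype.ext k))
  have c5 := rk F (fun y hy => n0 y (c4 y hy).1) c3
  let f : GolayPt ≃ F := Fintype.equivOfCardEq (by rw [card_pt, Fintype.card_coe]; omega)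
  let φ : L →+ V := AddMonoidHom.mk' (fun y i => β y (f i)) fun y w => funext fun i => by simp
  have hφ : ∀ y i, φ y i = β y (f i) := fun _ _ => rfl
  have hf : ∀ i, φ (f i) = Pi.single i 8 := fun i => funext fun j => by
    rw [hφ, Pi.single_apply]
    split_ifs with e
    · rw [e]; exact (c4 _ (f i).2).1
    · exact c3 _ (f i).2 _ (f j).2 fun k => e (f.injective (Subtype.ext k)).symm
  have inj : ∀ w, φ w = 0 → w = 0 := fun w hw => by_contra fun hn => by
    have k : ∀ y ∈ F, β w y = 0 := fun y hy => by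
      have := congrFun hw (f.symm ⟨y, hy⟩)
      rwa [hφ, f.apply_symm_apply] at this
    have := rk (insert w F) (fun y hy => (mem_insert.1 hy).elim (fun e => e ▸ hn) fun h => n0 y (c4 y h).1)
      fun y hy u hu e => by
        rcases mem_insert.1 hy with a | a <;> rcases mem_insert.1 hu with b | b
        exacts [absurd (a.trans b.symm) e, a ▸ k u b, b ▸ (H.symm _ _).trans (k y a), c3 y a u b e]
    rw [card_insert_of_notMem fun h => by have := (c4 w h).1; rw [k w h] at this; omega] at this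
    omega
  refine ⟨φ, fun y => ?_, fun b => four_mem_of fun i => ?_⟩
  · have := sub_eq_zero.1 (inj ((8 : ℤ) • y - ∑ i, φ y i • (f i : L)) (funext fun j => by
      simp only [map_sub, map_zsmul, map_sum, hf, Pi.sub_apply, Pi.smul_apply, Finset.sum_apply, Pi.single_apply,
        smul_eq_mul, mul_ite, mul_zero, sum_ite_eq, mem_univ, if_true, Pi.zero_apply]; ring))
    have k := congrArg (β y) this
    rw [map_zsmul, map_sum, smul_eq_mul] at k
    rw [k, sqNorm]
    exact sum_congr rfl fun i _ => by rw [map_zsmul, ← hφ, smul_eq_mul, sq]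
  · obtain ⟨z, a⟩ := (c4 _ (f i).2).2
    obtain ⟨z', a'⟩ := (c4 _ (f none).2).2
    refine ⟨x - z - z', funext fun j => ?_⟩
    have k := congrFun (congrArg φ (show 2 • (x - z - z') = f i + f none by
      rw [smul_sub, smul_sub, ← a, ← a', two_smul]; abel)) j
    rw [map_nsmul, map_add, hf, hf] at k
    simp only [Pi.smul_apply, Pi.add_apply, Pi.single_apply, nsmul_eq_mul] at k
    rw [d4_apply, Units.val_one]
    generalize φ (x - z - z') j = t at k
    split_ifs at k ⊢ <;> omega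

theorem uniq {L : Type*} [AddCommGroup L] {β : L →+ L →+ ℤ} (H : Lat β 4) (he : ∀ x, 2 ∣ β x x)
    (hQ : (dbl L).range.index = 2 ^ 24) (h4 : {x | β x x = 4}.ncard = 196560) (h6 : {x | β x x = 6}.ncard = 16773120)
    (h8 : {x | β x x = 8}.ncard = 398034000) : ∃ f : L ≃+ LL, ∀ x, sqNorm (f x : V) = 8 * β x x := by
  obtain ⟨φ, h1, h2⟩ := frame H hQ h4 h6 h8
  have h0 : ∀ x, β x x = 0 ∨ 4 ≤ β x x := fun x => by
    by_cases e : x = 0
    exacts [Or.inl (by simp [e]), Or.inr (H.min x e)]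
  have inj : ∀ {χ : L →+ V}, (∀ x, sqNorm (χ x) = 8 * β x x) → Function.Injective χ := fun h =>
    (injective_iff_map_eq_zero _).2 fun x e => by_contra fun hn => by
      have := h x; have := H.min x hn; rw [e, sqNorm_zero] at *; omega
  obtain ⟨ψ, k1, k2⟩ := Pre.main (Λ := φ.range) ⟨by rintro _ ⟨x, rfl⟩; have := he x; have := h1 x; omega,
    by rintro _ ⟨x, rfl⟩; have := h0 x; have := h1 x; omega, h2, by
      rw [← h4, ← Set.ncard_image_of_injective _ (inj h1)]
      congr 1; ext y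
      exact ⟨fun ⟨⟨x, e⟩, h⟩ => ⟨x, by have := h1 x; rw [e, h] at this; show β x x = 4; omega, e⟩,
        fun ⟨x, h, e⟩ => ⟨⟨x, e⟩, by rw [← e, h1, show β x x = 4 from h]; rfl⟩⟩⟩
  have k3 : ∀ x, sqNorm (ψ.comp φ x) = 8 * β x x := fun x => (k1 _).trans (h1 x)
  exact ⟨(AddMonoidHom.ofInjective (inj k3)).trans (AddEquiv.addSubgroupCongr (by
    rw [AddMonoidHom.range_comp, k2])), k3⟩

end Cfsg.Agent.Leech.Uniq
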